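import Cfsg.Agent.Lib.Helper35.Fi22Ord.Main
import Cfsg.Agent.Lib.Helper35.Fi22a.Check
import Cfsg.Agent.Lib.Helper35.Fi22Tr.X.Fin
import Cfsg.Agent.Lib.Helper35.Trans3

/-! The class of 3-transpositions of the presented Fi22. -/

namespace Cfsg.Agent.Lib.Helper35.Fi22Tr

open Cfsg.Agent.Lib.Helper35 Cfsg.Spor

set_option maxRecDepth 100000

def zW : List Nat := [0]
def w5 : List Nat := [0, 1, 2, 3, 4, 7, 0, 1, 2, 3, 4, 7, 0, 1, 2, 3, 4, 7, 0, 1, 2, 3, 4, 7, 0, 1, 2, 3, 4, 7]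
def g1 : List Nat := [1]
def g2 : List Nat := [1, 0, 2, 1]
def g2r : List Nat := [1, 2, 0, 1]

theorem weq0 : zW ++ ([0] ++ (zW ++ [0])) = X.wl0.W := by decide +kernel
theorem weq1 : zW ++ ([2] ++ (zW ++ [2])) = X.wl1.W := by decide +kernel
theorem weq2 : zW ++ ([3] ++ (zW ++ [3])) = X.wl2.W := by decide +kernel
theorem weq3 : zW ++ ([4] ++ (zW ++ [4])) = X.wl3.W := by decide +kernel
theorem weq4 : zW ++ ([5] ++ (zW ++ [5])) = X.wl4.W := by decide +kernel
theorem weq5 : zW ++ ([6] ++ (zW ++ [6])) = X.wl5.W := by decide +kernel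
theorem weq6 : zW ++ ([7] ++ (zW ++ [7])) = X.wl6.W := by decide +kernel
theorem weq7 : zW ++ ([8] ++ (zW ++ [8])) = X.wl7.W := by decide +kernel
theorem weq8 : zW ++ (w5 ++ (zW ++ w5)) = X.wl8.W := by decide +kernel
theorem weq9 : w5 ++ w5 = X.wl9.W := by decide +kernel
theorem veq1 : g2r ++ g2 = X.wl10.W := by decide +kernel
theorem veq2 : repW 3 (zW ++ (g1 ++ (zW ++ g1))) = X.wl11.W := by decide +kernel
theorem veq3 : repW 2 (zW ++ (g2r ++ (zW ++ g2))) = X.wl12.W := by decide +kernel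

theorem finFi22 : Finite Fi22 := Nat.finite_of_card_ne_zero (by rw [Fi22Ord.main.2]; decide)

theorem hidx : (wsub Fi22Ord.I.val Fi22a.S).index = 3509 + 1 :=
  index_of_certs Fi22Ord.I _ Fi22a.S rfl 3509 Fi22a.permData Fi22a.certData

theorem exists_faithful : ∃ Φ : Fi22 →* Equiv.Perm (Fin (3509 + 1)),
    (∀ c, Φ (Fi22Ord.I.val c) = Fi22a.permData.pv c) ∧ Function.Injective Φ := by
  obtain ⟨Φ, hΦ⟩ := exists_perm_hom Fi22Ord.I Fi22a.permData
  refine ⟨Φ, hΦ, ?_⟩
  haveI := Fi22Ord.main.1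
  rw [← MonoidHom.ker_eq_bot_iff]
  rcases (MonoidHom.normal_ker Φ).eq_bot_or_eq_top with h | h
  · exact h
  · exfalso
    have h1 : wval Fi22Ord.I.val [1] ∈ Φ.ker := by rw [h]; exact Subgroup.mem_top _
    have h2 : Φ (wval Fi22Ord.I.val [1]) = 1 := h1
    have h3 := walk_of_hom Fi22Ord.I.val Fi22a.permData Φ hΦ [1] (by decide +kernel) ⟨0, by decide⟩
    rw [h2] at h3
    revert h3
    show ¬ ((0 : Nat) = pwalk Fi22a.permData.pt [1] 0)
    decide +kernel

theorem key (Ψ : Fi22 →* Equiv.Perm (Fin (3509 + 1)))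
    (hΨ : ∀ c, Ψ (Fi22Ord.I.val c) = Fi22a.permData.pv c) (hΨi : Function.Injective Ψ) :
    Subgroup.centralizer {wval Fi22Ord.I.val zW} = wsub Fi22Ord.I.val Fi22a.S ∧
      Cfsg.IsThreeTranspositionSet (conjugatesOf (wval Fi22Ord.I.val zW)) := by
  haveI := finFi22
  refine three_trans_of_model Fi22a.permData Fi22Ord.I.val Ψ hΨ hΨi
    (by rw [← hidx, mul_comm]; exact (Subgroup.card_mul_index _).symm) Fi22a.orbData
    (fun i => OrbData.lab_lt Fi22a.orbData 3 Fi22Ord.cnt0 Fi22Ord.prim0.hcnt Fi22Ord.prim0.hsum i)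
    zW g1 g1 g2 g2r (by decide +kernel) (by decide +kernel) (by decide +kernel) (by decide +kernel)
    (by decide +kernel) (by decide +kernel) (by decide +kernel) (by decide +kernel)
    ?_ ?_ ?_ 1 ?_ ?_ ?_ ?_ 0 ?_ ?_ 1 ?_ ?_ ?_ ?_
  · intro s hs i hi
    simp only [Fi22a.S, List.mem_cons, List.not_mem_nil, or_false] at hs
    rcases hs with rfl | rfl | rfl | rfl | rfl | rfl | rfl | rfl | rfl
    · exact (Fi22a.permData.chk 0 (by decide +kernel) i hi).2
    · exact (Fi22a.permData.chk 2 (by decide +kernel) i hi).2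
    · exact (Fi22a.permData.chk 3 (by decide +kernel) i hi).2
    · exact (Fi22a.permData.chk 4 (by decide +kernel) i hi).2
    · exact (Fi22a.permData.chk 5 (by decide +kernel) i hi).2
    · exact (Fi22a.permData.chk 6 (by decide +kernel) i hi).2
    · exact (Fi22a.permData.chk 7 (by decide +kernel) i hi).2
    · exact (Fi22a.permData.chk 8 (by decide +kernel) i hi).2
    · exact weq9 ▸ X.wfix9 i hi
  · intro s hs i hi
    simp only [Fi22a.S, List.mem_cons, List.not_mem_nil, or_false] at hs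
    rcases hs with rfl | rfl | rfl | rfl | rfl | rfl | rfl | rfl | rfl
    · rw [weq0]; exact X.wfix0 i hi
    · rw [weq1]; exact X.wfix1 i hi
    · rw [weq2]; exact X.wfix2 i hi
    · rw [weq3]; exact X.wfix3 i hi
    · rw [weq4]; exact X.wfix4 i hi
    · rw [weq5]; exact X.wfix5 i hi
    · rw [weq6]; exact X.wfix6 i hi
    · rw [weq7]; exact X.wfix7 i hi
    · exact weq8 ▸ X.wfix8 i hi
  · intro i hi
    exact (Fi22a.permData.chk 0 (by decide +kernel) i hi).2
  · show 1 < 3509 + 1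
    decide
  · decide +kernel
  · intro i hi
    exact (Fi22a.permData.chk 1 (by decide +kernel) i hi).2
  · intro i hi
    rw [veq1]; exact X.wfix10 i hi
  · show 0 < 3509 + 1
    decide
  · decide +kernel
  · show 1 < 3509 + 1
    decide
  · decide +kernel
  · intro i hi
    rw [veq2]; exact X.wfix11 i hi
  · intro i hi
    rw [veq3]; exact X.wfix12 i hi

end Cfsg.Agent.Lib.Helper35.Fi22Tr
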